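import Mathlib
import Cfsg.Agent.Lib.SmallSimple.Tools
import Cfsg.Agent.Lib.SmallSimple.Basic

/-!
Sylow data of a simple group at a prime `p` with `p ∥ |H|`: the numbers `a = n_p`, `c = |C(P)|/p`,
the commuting relation between primes, and a lower bound for the number of elements whose order
is divisible by `p`.
-/

set_option autoImplicit false

namespace Cfsg.Agent.Lib.J1Ord

open Subgroup
open scoped Pointwise

variable {H : Type*} [Group H]

/-- Commuting elements of orders `p` and `q`. -/
def Cm (H : Type*) [Group H] (p q : ℕ) : Prop :=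
  ∃ x y : H, orderOf x = p ∧ orderOf y = q ∧ Commute x y

theorem Cm.symm {p q : ℕ} (h : Cm H p q) : Cm H q p := by
  obtain ⟨x, y, hx, hy, hc⟩ := h
  exact ⟨y, x, hy, hx, hc.symm⟩

/-- Sylow data at `p`. -/
structure PD (H : Type*) [Group H] (p a c : ℕ) : Prop where
  prime : p.Prime
  card_syl : Nat.card (Sylow p H) = a
  card_P : ∀ P : Sylow p H, Nat.card (P : Subgroup H) = p
  card_C : ∀ P : Sylow p H, Nat.card (centralizer ((P : Subgroup H) : Set H)) = p * c

variable [Finite H]

theorem card_centralizer_sylow {p : ℕ} [Fact p.Prime] (P Q : Sylow p H) :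
    Nat.card (centralizer ((P : Subgroup H) : Set H)) ≤
      Nat.card (centralizer ((Q : Subgroup H) : Set H)) := by
  obtain ⟨g, rfl⟩ := MulAction.exists_smul_eq H P Q
  let f : centralizer ((P : Subgroup H) : Set H) → centralizer (((g • P : Sylow p H) : Subgroup H) : Set H) :=
    fun y => ⟨g * y * g⁻¹, by
      rw [mem_centralizer_iff]
      intro w hw
      have hw' : w ∈ (MulAut.conj g • (P : Subgroup H)) := by
        have : ((g • P : Sylow p H) : Subgroup H) = MulAut.conj g • (P : Subgroup H) := Sylow.coe_subgroup_smul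
        rw [← this]
        exact hw
      obtain ⟨u, hu, rfl⟩ := (Subgroup.mem_smul_pointwise_iff_exists _ _ _).mp hw'
      have hy := mem_centralizer_iff.mp y.2 u hu
      simp only [MulAut.smul_def, MulAut.conj_apply]
      calc g * u * g⁻¹ * (g * y * g⁻¹) = g * (u * y) * g⁻¹ := by group
        _ = g * (y * u) * g⁻¹ := by rw [hy]
        _ = g * y * g⁻¹ * (g * u * g⁻¹) := by group⟩
  apply Nat.card_le_card_of_injective f
  intro y y' h
  have h1 : g * (y : H) * g⁻¹ = g * (y' : H) * g⁻¹ := congrArg Subtype.val h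
  apply Subtype.ext
  exact mul_left_cancel (mul_right_cancel h1)

theorem card_centralizer_sylow_eq {p : ℕ} [Fact p.Prime] (P Q : Sylow p H) :
    Nat.card (centralizer ((P : Subgroup H) : Set H)) =
      Nat.card (centralizer ((Q : Subgroup H) : Set H)) :=
  le_antisymm (card_centralizer_sylow P Q) (card_centralizer_sylow Q P)

/-- An element of order `p` in a group with Sylow `p`-subgroups of order `p` generates a Sylow subgroup. -/
theorem exists_sylow_zpowers {p : ℕ} [hp : Fact p.Prime] (hc : ∀ P : Sylow p H, Nat.card (P : Subgroup H) = p)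
    {x : H} (hx : orderOf x = p) : ∃ Q : Sylow p H, (Q : Subgroup H) = zpowers x := by
  have h1 : IsPGroup p (zpowers x) := by
    apply IsPGroup.of_card (n := 1)
    rw [Nat.card_zpowers, hx, pow_one]
  obtain ⟨Q, hQ⟩ := h1.exists_le_sylow
  refine ⟨Q, ?_⟩
  symm
  apply Subgroup.eq_of_le_of_card_ge hQ
  rw [Nat.card_zpowers, hx, hc]

theorem exists_generator {p : ℕ} [hp : Fact p.Prime] (P : Sylow p H) (hc : Nat.card (P : Subgroup H) = p) :
    ∃ x : H, x ∈ (P : Subgroup H) ∧ orderOf x = p ∧ (P : Subgroup H) = zpowers x := by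
  obtain ⟨x, hx⟩ := exists_prime_orderOf_dvd_card' (G := (P : Subgroup H)) p (by rw [hc])
  refine ⟨x, x.2, by rwa [Subgroup.orderOf_coe], ?_⟩
  symm
  apply Subgroup.eq_of_le_of_card_ge
  · rw [zpowers_le]; exact x.2
  · rw [Nat.card_zpowers, Subgroup.orderOf_coe, hx, hc]

theorem le_centralizer_self {p : ℕ} [hp : Fact p.Prime] (P : Sylow p H) (hc : Nat.card (P : Subgroup H) = p) :
    (P : Subgroup H) ≤ centralizer ((P : Subgroup H) : Set H) := by
  obtain ⟨x, -, -, hPx⟩ := exists_generator P hc
  rw [hPx]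
  intro a ha
  rw [mem_centralizer_iff]
  intro b hb
  obtain ⟨i, rfl⟩ := mem_zpowers_iff.mp ha
  obtain ⟨j, rfl⟩ := mem_zpowers_iff.mp hb
  exact zpow_mul_comm x j i

theorem PD.dvd_iff {p a c q : ℕ} (h : PD H p a c) (hq : q.Prime) (hqp : q ≠ p) : q ∣ c ↔ Cm H p q := by
  haveI : Fact p.Prime := ⟨h.prime⟩
  haveI : Fact q.Prime := ⟨hq⟩
  obtain ⟨P⟩ : Nonempty (Sylow p H) := inferInstance
  constructor
  · intro hd
    have h1 : q ∣ Nat.card (centralizer ((P : Subgroup H) : Set H)) := by
      rw [h.card_C P]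
      exact hd.mul_left p
    obtain ⟨y, hy⟩ := exists_prime_orderOf_dvd_card' (G := centralizer ((P : Subgroup H) : Set H)) q h1
    obtain ⟨x, hxP, hxo, -⟩ := exists_generator P (h.card_P P)
    refine ⟨x, y, hxo, by rwa [Subgroup.orderOf_coe], ?_⟩
    exact (mem_centralizer_iff.mp y.2 x hxP)
  · rintro ⟨x, y, hx, hy, hc⟩
    obtain ⟨Q, hQ⟩ := exists_sylow_zpowers (h.card_P) hx
    have hyC : y ∈ centralizer ((Q : Subgroup H) : Set H) := by
      rw [mem_centralizer_iff]
      intro w hw
      have hw' : w ∈ zpowers x := by rw [← hQ]; exact hw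
      obtain ⟨i, rfl⟩ := mem_zpowers_iff.mp hw'
      exact (hc.zpow_left i)
    have h1 : q ∣ Nat.card (centralizer ((Q : Subgroup H) : Set H)) := by
      rw [← hy, ← Subgroup.orderOf_mk y hyC]
      exact orderOf_dvd_natCard _
    rw [h.card_C Q] at h1
    rcases (Nat.Prime.dvd_mul hq).mp h1 with h2 | h2
    · exact absurd ((Nat.prime_dvd_prime_iff_eq hq h.prime).mp h2) hqp
    · exact h2

theorem card_eq_mul_relIndex {K L : Subgroup H} (hle : K ≤ L) : Nat.card L = Nat.card K * K.relIndex L := by
  have h1 := relIndex_mul_index hle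
  have h2 := K.card_mul_index
  have h3 := L.card_mul_index
  have h4 : L.index ≠ 0 := index_ne_zero_of_finite
  apply Nat.eq_of_mul_eq_mul_right (Nat.pos_of_ne_zero h4)
  rw [h3, mul_assoc, h1, h2]

/-- Existence of Sylow data in a non-abelian simple group. -/
theorem exists_PD [IsSimpleGroup H] (hnc : ¬ IsMulCommutative H) {p m : ℕ} (hp : p.Prime)
    (hn : Nat.card H = p * m) (hm : ¬ p ∣ m) (h19 : 19 ∣ Nat.card H) :
    ∃ a c k : ℕ, PD H p a c ∧ a % p = 1 ∧ a ≠ 1 ∧ 19 ≤ a ∧ k ∣ p - 1 ∧ k ≠ 1 ∧ a * (p * c * k) = Nat.card H := by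
  haveI : Fact p.Prime := ⟨hp⟩
  obtain ⟨h1, h2, h3, h4, h5⟩ := Lib.SmallSimple.sylow_facts (G := H) hnc p 1 m
    (by rw [hn, pow_one]) hm (by norm_num)
  have hcP : ∀ P : Sylow p H, Nat.card (P : Subgroup H) = p := fun P => by
    have := (h5 P).1
    rwa [pow_one] at this
  obtain ⟨P⟩ : Nonempty (Sylow p H) := inferInstance
  have hle := le_centralizer_self P (hcP P)
  have hd : p ∣ Nat.card (centralizer ((P : Subgroup H) : Set H)) := by
    have := Subgroup.card_dvd_of_le hle
    rwa [hcP P] at this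
  obtain ⟨c, hc⟩ := hd
  haveI hcyc : IsCyclic (P : Subgroup H) := isCyclic_of_prime_card (hcP P)
  set k := (centralizer ((P : Subgroup H) : Set H)).relIndex (normalizer ((P : Subgroup H) : Set H)) with hk
  have hk1 : k ∣ p - 1 := by
    have := Lib.SmallSimple.relIndex_centralizer_normalizer_dvd (G := H) (P : Subgroup H)
    rwa [hcP P, Nat.totient_prime hp] at this
  have hk2 : k ≠ 1 := by
    intro hk1
    apply Lib.SmallSimple.false_of_normalizer_le_centralizer hnc (p := p) ⟨m, hn⟩ P
    rw [← Subgroup.relIndex_eq_one]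
    exact hk1
  have hNC : Nat.card (normalizer ((P : Subgroup H) : Set H)) = p * c * k := by
    rw [← hc, hk]
    exact card_eq_mul_relIndex (centralizer_le_normalizer _)
  have hfact : 19 ≤ Nat.card (Sylow p H) := by
    have h6 : 19 ∣ (Nat.card (Sylow p H)).factorial := (h19.mul_left 2).trans h4
    exact (Nat.Prime.dvd_factorial (by norm_num)).mp h6
  refine ⟨Nat.card (Sylow p H), c, k, ⟨hp, rfl, hcP, ?_⟩, h2, h3, hfact, hk1, hk2, ?_⟩
  · intro Q
    rw [card_centralizer_sylow_eq Q P, hc]
  · rw [← hNC]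
    exact (h5 P).2

theorem mem_of_zpow_mem {K : Subgroup H} {w : H} {r : ℕ} (hr : r.Prime) (hw : orderOf w = r) {e : ℤ}
    (he : ¬ (r : ℤ) ∣ e) (h : w ^ e ∈ K) : w ∈ K := by
  obtain ⟨u, v, huv⟩ := ((Nat.prime_iff_prime_int.mp hr).irreducible.coprime_iff_not_dvd).mpr he
  have h1 : w ^ (r : ℤ) = 1 := by rw [zpow_natCast, ← hw, pow_orderOf_eq_one]
  have h2 : w = (w ^ e) ^ v := by
    calc w = w ^ (u * (r : ℤ) + v * e) := by rw [huv, zpow_one]
      _ = (w ^ (r : ℤ)) ^ u * (w ^ e) ^ v := by
        rw [zpow_add, mul_comm u, zpow_mul, mul_comm v, zpow_mul]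
      _ = (w ^ e) ^ v := by rw [h1]; simp
  rw [h2]
  exact K.zpow_mem h v

/-- A prime `q` with `q > (a-1)/19` does not commute with `19`. -/
theorem cent_false [IsSimpleGroup H] {a c q : ℕ} (h : PD H 19 a c) (ha : a ≠ 1) (hq : q.Prime) (hq19 : q ≠ 19)
    (hd : q ∣ c) (hqa : (a - 1) / 19 < q) : False := by
  classical
  haveI : Fact (Nat.Prime 19) := ⟨by norm_num⟩
  obtain ⟨x, y, hx, hy, hc⟩ := (h.dvd_iff hq hq19).mp hd
  obtain ⟨P, hP⟩ := exists_sylow_zpowers h.card_P hx
  have hgP : IsPGroup 19 (zpowers x) := by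
    apply IsPGroup.of_card (n := 1)
    rw [Nat.card_zpowers, hx, pow_one]
  have hxS : ∀ S : Sylow 19 H, x • S = S → S = P := by
    intro S hS
    have h2 : S ∈ MulAction.fixedPoints (zpowers x) (Sylow 19 H) := by
      rintro ⟨w, hw⟩
      obtain ⟨i, rfl⟩ := mem_zpowers_iff.mp hw
      show (x ^ i) • S = S
      have h3 : x ∈ MulAction.stabilizer H S := hS
      exact (MulAction.stabilizer H S).zpow_mem h3 i
    have h3 := hgP.sylow_mem_fixedPoints_iff.mp h2
    apply Sylow.ext
    rw [hP]
    apply (Subgroup.eq_of_le_of_card_ge h3 _).symm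
    rw [Nat.card_zpowers, hx, h.card_P S]
  have hNP : normalizer ((P : Subgroup H) : Set H) ≤ MulAction.stabilizer H P := by
    intro g hg
    exact Sylow.smul_eq_iff_mem_normalizer.mpr hg
  have hxP : x ∈ MulAction.stabilizer H P := by
    apply hNP
    apply Subgroup.le_normalizer
    rw [hP]
    exact mem_zpowers x
  have hyP : y ∈ MulAction.stabilizer H P := by
    apply hNP
    apply centralizer_le_normalizer
    rw [mem_centralizer_iff]
    intro w hw
    rw [SetLike.mem_coe, hP] at hw
    obtain ⟨i, rfl⟩ := mem_zpowers_iff.mp hw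
    exact hc.zpow_left i
  have hfix : ∀ S' : Sylow 19 H, y • S' = S' := by
    by_contra hcon
    push Not at hcon
    obtain ⟨S', hS'⟩ := hcon
    have hne : S' ≠ P := by
      rintro rfl
      exact hS' hyP
    let g : Option (Fin 19 × Fin q) → Sylow 19 H := fun o => match o with
      | none => P
      | some u => (x ^ (u.1 : ℕ) * y ^ (u.2 : ℕ)) • S'
    have hnone : ∀ u : Fin 19 × Fin q, (x ^ (u.1 : ℕ) * y ^ (u.2 : ℕ)) • S' ≠ P := by
      intro u hu
      have h1 : (x ^ (u.1 : ℕ) * y ^ (u.2 : ℕ)) ∈ MulAction.stabilizer H P :=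
        Subgroup.mul_mem _ (Subgroup.pow_mem _ hxP _) (Subgroup.pow_mem _ hyP _)
      have h2 : (x ^ (u.1 : ℕ) * y ^ (u.2 : ℕ)) • P = P := h1
      rw [← h2] at hu
      exact hne (smul_left_cancel _ hu)
    have hsome : ∀ u v : Fin 19 × Fin q, (x ^ (u.1 : ℕ) * y ^ (u.2 : ℕ)) • S' = (x ^ (v.1 : ℕ) * y ^ (v.2 : ℕ)) • S' → u = v := by
      intro u v huv
      set X : H := x ^ ((u.1 : ℕ) - (v.1 : ℕ) : ℤ) with hX
      set Y : H := y ^ ((u.2 : ℕ) - (v.2 : ℕ) : ℤ) with hY
      have h1 : x ^ (u.1 : ℕ) = x ^ (v.1 : ℕ) * X := by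
        rw [hX, ← zpow_natCast, ← zpow_natCast, ← zpow_add]
        congr 1
        ring
      have h2 : y ^ (u.2 : ℕ) = y ^ (v.2 : ℕ) * Y := by
        rw [hY, ← zpow_natCast, ← zpow_natCast, ← zpow_add]
        congr 1
        ring
      have hcXY : Commute X Y := hc.zpow_zpow _ _
      have hc2 : Commute (y ^ (v.2 : ℕ)) X := (hc.symm.pow_left _).zpow_right _
      have h3 : x ^ (u.1 : ℕ) * y ^ (u.2 : ℕ) = (x ^ (v.1 : ℕ) * y ^ (v.2 : ℕ)) * (X * Y) := by
        rw [h1, h2]
        calc x ^ (v.1 : ℕ) * X * (y ^ (v.2 : ℕ) * Y) = x ^ (v.1 : ℕ) * (X * y ^ (v.2 : ℕ)) * Y := by group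
          _ = x ^ (v.1 : ℕ) * (y ^ (v.2 : ℕ) * X) * Y := by rw [hc2.eq]
          _ = _ := by group
      have hSt : X * Y ∈ MulAction.stabilizer H S' := by
        rw [h3, mul_smul] at huv
        exact smul_left_cancel _ huv
      have hYq : Y ^ q = 1 := by
        have hyq : y ^ q = 1 := hy ▸ pow_orderOf_eq_one y
        rw [hY, ← zpow_natCast, ← zpow_mul, mul_comm, zpow_mul, zpow_natCast, hyq, one_zpow]
      have hXq : X ^ q ∈ MulAction.stabilizer H S' := by
        have h4 := (MulAction.stabilizer H S').pow_mem hSt q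
        rwa [hcXY.mul_pow, hYq, mul_one] at h4
      have hi : (u.1 : ℕ) = (v.1 : ℕ) := by
        by_contra hne1
        have hX' : x ^ ((((u.1 : ℕ) - (v.1 : ℕ) : ℤ)) * (q : ℤ)) ∈ MulAction.stabilizer H S' := by
          rw [zpow_mul, zpow_natCast]
          exact hXq
        have hndvd : ¬ ((19 : ℕ) : ℤ) ∣ (((u.1 : ℕ) - (v.1 : ℕ) : ℤ)) * (q : ℤ) := by
          intro hdv
          rcases (Nat.prime_iff_prime_int.mp (by norm_num : Nat.Prime 19)).dvd_or_dvd hdv with h5 | h5
          · have h6 := u.1.2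
            have h7 := v.1.2
            push_cast at h5
            omega
          · have h6 : 19 ∣ q := by exact_mod_cast h5
            exact hq19 ((Nat.prime_dvd_prime_iff_eq (by norm_num) hq).mp h6).symm
        have h8 := mem_of_zpow_mem (by norm_num : Nat.Prime 19) hx hndvd hX'
        exact hne (hxS S' h8)
      have hj : (u.2 : ℕ) = (v.2 : ℕ) := by
        by_contra hne2
        have hX1 : X = 1 := by
          rw [hX, hi]
          simp
        rw [hX1, one_mul] at hSt
        have hndvd : ¬ (q : ℤ) ∣ ((u.2 : ℕ) - (v.2 : ℕ) : ℤ) := by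
          intro hdv
          have h6 := u.2.2
          have h7 := v.2.2
          obtain ⟨w, hw⟩ := hdv
          have h8 : (((u.2 : ℕ) : ℤ) - (v.2 : ℕ)) = q * w := hw
          have h9 : (q : ℤ) > 0 := by exact_mod_cast hq.pos
          have h10 : w = 0 := by
            by_contra hw0
            rcases lt_or_gt_of_ne hw0 with h11 | h11
            · nlinarith
            · nlinarith
          rw [h10, mul_zero] at h8
          omega
        have h8 := mem_of_zpow_mem hq hy hndvd hSt
        exact hS' h8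
      exact Prod.ext (Fin.ext hi) (Fin.ext hj)
    have hinj : Function.Injective g := by
      rintro (_ | u) (_ | v) huv
      · rfl
      · exact absurd huv.symm (hnone v)
      · exact absurd huv (hnone u)
      · rw [hsome u v huv]
    have hle := Nat.card_le_card_of_injective g hinj
    rw [h.card_syl, Nat.card_eq_fintype_card, Fintype.card_option, Fintype.card_prod, Fintype.card_fin, Fintype.card_fin] at hle
    omega
  let φ := MulAction.toPermHom H (Sylow 19 H)
  have hyk : y ∈ φ.ker := by
    rw [MonoidHom.mem_ker]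
    ext1 S'
    exact hfix S'
  rcases IsSimpleGroup.eq_bot_or_eq_top_of_normal φ.ker φ.normal_ker with h0 | h0
  · rw [h0, Subgroup.mem_bot] at hyk
    rw [hyk, orderOf_one] at hy
    exact hq.one_lt.ne hy
  · apply ha
    rw [← h.card_syl, Nat.card_eq_one_iff_unique]
    refine ⟨⟨fun S T => ?_⟩, inferInstance⟩
    obtain ⟨w, rfl⟩ := MulAction.exists_smul_eq H S T
    have hw : w ∈ φ.ker := by rw [h0]; exact Subgroup.mem_top w
    rw [MonoidHom.mem_ker] at hw
    have := congrArg (fun f : Equiv.Perm (Sylow 19 H) => f S) hw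
    exact this.symm

section count

open Classical in
/-- Elements of order divisible by `p`. -/
noncomputable def EE (H : Type*) [Group H] [Fintype H] (p : ℕ) : Finset H :=
  Finset.univ.filter fun x => p ∣ orderOf x

open Classical in
/-- Elements of order `p`. -/
noncomputable def OO (H : Type*) [Group H] [Fintype H] (p : ℕ) : Finset H :=
  Finset.univ.filter fun x => orderOf x = p

variable [Fintype H]

theorem mem_of_centralizer {p : ℕ} [hp : Fact p.Prime] (P : Sylow p H) (hc : Nat.card (P : Subgroup H) = p)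
    {z : H} (hz : orderOf z = p) (hzC : z ∈ centralizer ((P : Subgroup H) : Set H)) :
    (P : Subgroup H) = zpowers z := by
  have h1 : IsPGroup p (zpowers z) := by
    apply IsPGroup.of_card (n := 1)
    rw [Nat.card_zpowers, hz, pow_one]
  have h2 : P ∈ MulAction.fixedPoints (zpowers z) (Sylow p H) := by
    rintro ⟨w, hw⟩
    obtain ⟨i, rfl⟩ := mem_zpowers_iff.mp hw
    show (z ^ i) • P = P
    rw [Sylow.smul_eq_iff_mem_normalizer]
    exact centralizer_le_normalizer _ (zpow_mem hzC i)
  have h3 := h1.sylow_mem_fixedPoints_iff.mp h2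
  symm
  apply Subgroup.eq_of_le_of_card_ge h3
  rw [Nat.card_zpowers, hz, hc]

open Classical in
theorem card_fiber_ge {p c : ℕ} [hp : Fact p.Prime] (P : Sylow p H) (hc : Nat.card (P : Subgroup H) = p)
    (hC : Nat.card (centralizer ((P : Subgroup H) : Set H)) = p * c) :
    (p - 1) * c ≤ (Finset.univ.filter fun x : H =>
      x ∈ centralizer ((P : Subgroup H) : Set H) ∧ p ∣ orderOf x).card := by
  set C := centralizer ((P : Subgroup H) : Set H) with hCdef
  set Y := (Finset.univ.filter fun x : H => x ∈ C ∧ ¬ p ∣ orderOf x) with hY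
  set Z := (Finset.univ.filter fun x : H => x ∈ C ∧ p ∣ orderOf x) with hZ
  have hsum : Y.card + Z.card = p * c := by
    rw [← hC, Nat.card_eq_fintype_card, Fintype.card_subtype, add_comm]
    have : (Finset.univ.filter fun x : H => x ∈ C) = Z ∪ Y := by
      ext x
      simp only [hZ, hY, Finset.mem_filter, Finset.mem_univ, true_and, Finset.mem_union]
      tauto
    rw [this, Finset.card_union_of_disjoint]
    rw [Finset.disjoint_left]
    intro x hx hy
    simp only [hZ, hY, Finset.mem_filter, Finset.mem_univ, true_and] at hx hy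
    exact hy.2 hx.2
  -- at most one `p'`-element per coset of `P`
  have hYp : Y.card * p ≤ p * c := by
    rw [← hC]
    have hle := le_centralizer_self P hc
    let f : Y × (P : Subgroup H) → C := fun u => ⟨(u.1 : H) * (u.2 : H), by
      have h1 : (u.1 : H) ∈ C := (Finset.mem_filter.mp u.1.2).2.1
      exact C.mul_mem h1 (hle u.2.2)⟩
    have hinj : Function.Injective f := by
      rintro ⟨⟨y, hy⟩, ⟨r, hr⟩⟩ ⟨⟨y', hy'⟩, ⟨r', hr'⟩⟩ h
      have h0 : y * r = y' * r' := congrArg Subtype.val h
      have hy1 := (Finset.mem_filter.mp hy).2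
      have hy2 := (Finset.mem_filter.mp hy').2
      -- `u = y'⁻¹ y = r' r⁻¹` in `P`
      obtain ⟨u, hu⟩ : ∃ u, u = y'⁻¹ * y := ⟨_, rfl⟩
      have hy0 : y = y' * r' * r⁻¹ := eq_mul_inv_of_mul_eq h0
      have hu1 : u = r' * r⁻¹ := by rw [hu, hy0]; group
      have huP : u ∈ (P : Subgroup H) := by
        rw [hu1]
        exact (P : Subgroup H).mul_mem hr' ((P : Subgroup H).inv_mem hr)
      have hyu : y = y' * u := by rw [hu]; group
      have hcomm : Commute u y' := mem_centralizer_iff.mp hy2.1 u huP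
      have hM : Nat.Coprime (orderOf y * orderOf y') p := by
        apply Nat.Coprime.mul_left
        · exact ((Nat.Prime.coprime_iff_not_dvd hp.out).2 hy1.2).symm
        · exact ((Nat.Prime.coprime_iff_not_dvd hp.out).2 hy2.2).symm
      have h1 : y ^ (orderOf y * orderOf y') = 1 := by rw [pow_mul, pow_orderOf_eq_one, one_pow]
      have h2 : y' ^ (orderOf y * orderOf y') = 1 := by
        rw [mul_comm, pow_mul, pow_orderOf_eq_one, one_pow]
      have h3 : u ^ (orderOf y * orderOf y') = 1 := by
        have h4 : (y' * u) ^ (orderOf y * orderOf y') = 1 := by rw [← hyu]; exact h1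
        rw [hcomm.symm.mul_pow, h2, one_mul] at h4
        exact h4
      have h4 : u ^ p = 1 := by
        have h5 := pow_card_eq_one' (x := (⟨u, huP⟩ : (P : Subgroup H)))
        rw [hc] at h5
        exact congrArg Subtype.val h5
      have h5 : orderOf u = 1 := Nat.eq_one_of_dvd_coprimes hM (orderOf_dvd_of_pow_eq_one h3) (orderOf_dvd_of_pow_eq_one h4)
      have h6 : u = 1 := orderOf_eq_one_iff.mp h5
      have h7 : y = y' := by rw [hyu, h6, mul_one]
      subst h7
      have h8 : r = r' := mul_left_cancel h0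
      subst h8
      rfl
    have := Nat.card_le_card_of_injective f hinj
    rw [Nat.card_prod, hc] at this
    simpa [Nat.card_eq_fintype_card] using this
  have hpos := hp.out.pos
  have hYc : Y.card ≤ c := by
    rw [mul_comm] at hYp
    exact Nat.le_of_mul_le_mul_left hYp hpos
  have : (p - 1) * c = p * c - c := by
    rw [Nat.sub_mul, one_mul]
  omega

open Classical in
/-- The number of elements with order divisible by `p`. -/
theorem card_EE_ge {p a c : ℕ} (h : PD H p a c) : a * ((p - 1) * c) ≤ (EE H p).card := by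
  haveI : Fact p.Prime := ⟨h.prime⟩
  haveI : Fintype (Sylow p H) := Fintype.ofFinite _
  let F : Sylow p H → Finset H := fun P => Finset.univ.filter fun x : H =>
      x ∈ centralizer ((P : Subgroup H) : Set H) ∧ p ∣ orderOf x
  have hdisj : ((Finset.univ : Finset (Sylow p H)) : Set (Sylow p H)).PairwiseDisjoint F := by
    intro P _ Q _ hPQ
    rw [Function.onFun, Finset.disjoint_left]
    intro x hx hy
    have hx' := (Finset.mem_filter.mp hx).2
    have hy' := (Finset.mem_filter.mp hy).2
    apply hPQ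
    have ho : orderOf (x ^ (orderOf x / p)) = p := orderOf_pow_orderOf_div (orderOf_pos x).ne' hx'.2
    have h1 := mem_of_centralizer P (h.card_P P) ho (pow_mem hx'.1 _)
    have h2 := mem_of_centralizer Q (h.card_P Q) ho (pow_mem hy'.1 _)
    exact Sylow.ext (h1.trans h2.symm)
  have hsub : (Finset.univ : Finset (Sylow p H)).biUnion F ⊆ EE H p := by
    intro x hx
    obtain ⟨P, -, hxP⟩ := Finset.mem_biUnion.mp hx
    simp only [EE, Finset.mem_filter, Finset.mem_univ, true_and]
    exact (Finset.mem_filter.mp hxP).2.2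
  refine le_trans ?_ (Finset.card_le_card hsub)
  rw [Finset.card_biUnion hdisj]
  have hle : ∀ P ∈ (Finset.univ : Finset (Sylow p H)), (p - 1) * c ≤ (F P).card := by
    intro P _
    exact card_fiber_ge P (h.card_P P) (h.card_C P)
  have := Finset.card_nsmul_le_sum _ _ _ hle
  simp only [smul_eq_mul, Finset.card_univ] at this
  rwa [← Nat.card_eq_fintype_card, h.card_syl] at this

open Classical in
theorem card_OO_eq {p a c : ℕ} (h : PD H p a c) : (OO H p).card = a * (p - 1) := by
  haveI : Fact p.Prime := ⟨h.prime⟩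
  obtain ⟨P⟩ : Nonempty (Sylow p H) := inferInstance
  have h1 := Lib.SmallSimple.card_orderOf_eq_prime P (h.card_P P)
  rw [h.card_syl, Nat.card_eq_fintype_card, Fintype.card_subtype] at h1
  rw [← h1]
  rfl

open Classical in
/-- The counting inequality: `ps` a finite set of primes with data, `Q ⊆ ps` pairwise non-commuting. -/
theorem count_lt (ps Q : Finset ℕ) (a c : ℕ → ℕ)
    (hpd : ∀ p ∈ ps, PD H p (a p) (c p))
    (hQ : ∀ p ∈ Q, ∀ q ∈ Q, p ≠ q → ¬ Cm H p q) :
    ∑ p ∈ ps, (if p ∈ Q then a p * ((p - 1) * c p) else a p * (p - 1)) < Nat.card H := by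
  let A : ℕ → Finset H := fun p => if p ∈ Q then EE H p else OO H p
  have hA1 : ∀ p ∈ ps, (1 : H) ∉ A p := by
    intro p hp h1
    have hpp := (hpd p hp).prime
    by_cases hq : p ∈ Q
    · simp only [A, if_pos hq, EE, Finset.mem_filter, Finset.mem_univ, true_and, orderOf_one] at h1
      exact hpp.one_lt.ne' (Nat.dvd_one.mp h1)
    · simp only [A, if_neg hq, OO, Finset.mem_filter, Finset.mem_univ, true_and, orderOf_one] at h1
      exact hpp.one_lt.ne h1
  have hdisj : (ps : Set ℕ).PairwiseDisjoint A := by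
    intro p hp q hq hpq
    have hpp := (hpd p hp).prime
    have hqp := (hpd q hq).prime
    rw [Function.onFun, Finset.disjoint_left]
    intro x hx hy
    have key : p ∣ orderOf x := by
      by_cases h : p ∈ Q
      · simpa only [A, if_pos h, EE, Finset.mem_filter, Finset.mem_univ, true_and] using hx
      · have : orderOf x = p := by simpa only [A, if_neg h, OO, Finset.mem_filter, Finset.mem_univ, true_and] using hx
        rw [this]
    have key2 : q ∣ orderOf x := by
      by_cases h : q ∈ Q
      · simpa only [A, if_pos h, EE, Finset.mem_filter, Finset.mem_univ, true_and] using hy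
      · have : orderOf x = q := by simpa only [A, if_neg h, OO, Finset.mem_filter, Finset.mem_univ, true_and] using hy
        rw [this]
    by_cases h1 : p ∈ Q
    · by_cases h2 : q ∈ Q
      · refine hQ p h1 q h2 hpq ⟨x ^ (orderOf x / p), x ^ (orderOf x / q), ?_, ?_, ?_⟩
        · exact orderOf_pow_orderOf_div (orderOf_pos x).ne' key
        · exact orderOf_pow_orderOf_div (orderOf_pos x).ne' key2
        · exact (Commute.refl x).pow_pow _ _
      · have : orderOf x = q := by simpa only [A, if_neg h2, OO, Finset.mem_filter, Finset.mem_univ, true_and] using hy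
        rw [this] at key
        exact hpq ((Nat.prime_dvd_prime_iff_eq hpp hqp).mp key)
    · have : orderOf x = p := by simpa only [A, if_neg h1, OO, Finset.mem_filter, Finset.mem_univ, true_and] using hx
      rw [this] at key2
      exact hpq ((Nat.prime_dvd_prime_iff_eq hqp hpp).mp key2).symm
  have hcard : (ps.biUnion A).card < Nat.card H := by
    rw [Nat.card_eq_fintype_card, ← Finset.card_univ]
    apply Finset.card_lt_card
    rw [Finset.ssubset_iff_of_subset (Finset.subset_univ _)]
    refine ⟨1, Finset.mem_univ _, ?_⟩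
    intro h1
    obtain ⟨p, hp, h2⟩ := Finset.mem_biUnion.mp h1
    exact hA1 p hp h2
  refine lt_of_le_of_lt ?_ hcard
  rw [Finset.card_biUnion hdisj]
  apply Finset.sum_le_sum
  intro p hp
  by_cases h : p ∈ Q
  · simp only [A, if_pos h]
    exact card_EE_ge (hpd p hp)
  · simp only [A, if_neg h]
    exact (card_OO_eq (hpd p hp)).ge

end count

end Cfsg.Agent.Lib.J1Ord
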