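import Mathlib
import Cfsg.Agent.Lib.J1Ord.Basic

/-!
The finite arithmetic check: all orders `19 * m`, `m ∣ 9240`, `m ≠ 9240`, apart from a few, are excluded
for non-abelian simple groups by Sylow numbers, commuting primes and element counting.
-/

set_option autoImplicit false

namespace Cfsg.Agent.Lib.J1Ord

/-- The divisors of `175560`. -/
def DIVS : List ℕ := [1, 2, 3, 4, 5, 6, 7, 8, 10, 11, 12, 14, 15, 19, 20, 21, 22, 24, 28, 30, 33, 35, 38, 40, 42, 44, 55, 56, 57, 60, 66, 70, 76, 77, 84, 88, 95, 105, 110, 114, 120, 132, 133, 140, 152, 154, 165, 168, 190, 209, 210, 220, 228, 231, 264, 266, 280, 285, 308, 330, 380, 385, 399, 418, 420, 440, 456, 462, 532, 570, 616, 627, 660, 665, 760, 770, 798, 836, 840, 924, 1045, 1064, 1140, 1155, 1254, 1320, 1330, 1463, 1540, 1596, 1672, 1848, 1995, 2090, 2280, 2310, 2508, 2660, 2926, 3080, 3135, 3192, 3990, 4180, 4389, 4620, 5016, 5320, 5852, 6270, 7315, 7980, 8360, 8778, 9240, 11704, 12540, 14630, 15960,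 17556, 21945, 25080, 29260, 35112, 43890, 58520, 87780, 175560]

theorem mem_DIVS {a : ℕ} (h : a ∣ 175560) : a ∈ DIVS := by
  have key : ∀ b ∈ List.range 420, b ∣ 175560 → b ∈ DIVS ∧ 175560 / b ∈ DIVS := by decide +kernel
  obtain ⟨b, hb⟩ := h
  by_cases ha : a < 420
  · exact (key a (List.mem_range.mpr ha) ⟨b, hb⟩).1
  · have hb' : b < 420 := by
      by_contra hb2
      have : 420 * 420 ≤ a * b := Nat.mul_le_mul (by omega) (by omega)
      omega
    have h1 := (key b (List.mem_range.mpr hb') ⟨a, by rw [hb, mul_comm]⟩).2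
    have h2 : 175560 / b = a := by
      rw [hb]
      exact Nat.mul_div_cancel _ (Nat.pos_of_ne_zero (by rintro rfl; simp at hb))
    rwa [h2] at h1

/-- Options for `(n_p, c_p)`. -/
def optsP (n p : ℕ) : List (ℕ × ℕ) :=
  if p ∣ n then
    DIVS.flatMap fun a =>
      if a % p = 1 ∧ a ≠ 1 ∧ 19 ≤ a then
        ((List.range p).filter fun k => k ≠ 0 ∧ k ≠ 1 ∧ k ∣ p - 1 ∧ a * p * k ∣ n).map fun k => (a, n / (a * p * k))
      else []
  else [(0, 0)]

theorem mem_optsP {n p a c k : ℕ} (hn : n ∣ 175560) (hn0 : n ≠ 0) (hp : 2 ≤ p) (hpn : p ∣ n)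
    (h1 : a % p = 1) (h2 : a ≠ 1) (h3 : 19 ≤ a) (h4 : k ∣ p - 1) (h5 : k ≠ 1) (h6 : a * (p * c * k) = n) :
    (a, c) ∈ optsP n p := by
  have hk0 : k ≠ 0 := by
    rintro rfl
    apply hn0
    rw [← h6]
    simp
  have ha : a ∣ 175560 := (Dvd.intro _ h6).trans hn
  have hk : k < p := by
    have := Nat.le_of_dvd (by omega) h4
    omega
  have h7 : n = (a * p * k) * c := by rw [← h6]; ring
  have hpos : 0 < a * p * k := by
    apply Nat.pos_of_ne_zero
    intro h0
    apply hn0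
    rw [h7, h0, zero_mul]
  rw [optsP, if_pos hpn]
  simp only [List.mem_flatMap]
  refine ⟨a, mem_DIVS ha, ?_⟩
  rw [if_pos ⟨h1, h2, h3⟩]
  simp only [List.mem_map, List.mem_filter, List.mem_range]
  refine ⟨k, ⟨hk, ?_⟩, ?_⟩
  · simp only [decide_eq_true_eq]
    exact ⟨hk0, h5, h4, ⟨c, h7⟩⟩
  · have : n / (a * p * k) = c := Nat.div_eq_of_eq_mul_right hpos h7
    rw [this]

/-- The five odd primes. -/
def ps5 : List ℕ := [3, 5, 7, 11, 19]

/-- Subsets. -/
def subs : List ℕ → List (List ℕ)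
  | [] => [[]]
  | a :: l => subs l ++ (subs l).map (a :: ·)

/-- Assemble the data. -/
def val (t3 t5 t7 t11 t19 : ℕ × ℕ) : ℕ → ℕ × ℕ := fun p =>
  if p = 3 then t3 else if p = 5 then t5 else if p = 7 then t7 else if p = 11 then t11 else t19

/-- The commuting relation is not symmetric. -/
def asym (D : ℕ → ℕ × ℕ) : Bool :=
  ps5.any fun p => ps5.any fun q =>
    decide (p ≠ q) && decide ((D p).2 ≠ 0) && decide ((D q).2 ≠ 0) &&
      (decide (q ∣ (D p).2) != decide (p ∣ (D q).2))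

/-- A large prime commutes with `19`. -/
def centB (D : ℕ → ℕ × ℕ) : Bool :=
  ps5.any fun q => decide (q ≠ 19) && decide ((D 19).2 ≠ 0) && decide (q ∣ (D 19).2) &&
    decide (((D 19).1 - 1) / 19 < q)

/-- Pairwise non-commuting. -/
def indep (D : ℕ → ℕ × ℕ) (Q : List ℕ) : Bool :=
  Q.all fun p => Q.all fun q =>
    decide (p = q) || decide ((D p).2 = 0) || decide ((D q).2 = 0) || !decide (q ∣ (D p).2)

/-- The number of elements counted. -/
def total (D : ℕ → ℕ × ℕ) (Q : List ℕ) : ℕ :=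
  (ps5.map fun p => if p ∈ Q then (D p).1 * ((p - 1) * (D p).2) else (D p).1 * (p - 1)).sum

/-- Too many elements. -/
def cntB (n : ℕ) (D : ℕ → ℕ × ℕ) : Bool :=
  (subs ps5).any fun Q => indep D Q && decide (n ≤ total D Q)

/-- The contradiction test. -/
def Bad (n : ℕ) (D : ℕ → ℕ × ℕ) : Bool := asym D || centB D || cntB n D

/-- All options are contradictory. -/
def chk (n : ℕ) : Bool :=
  (optsP n 3).all fun t3 => (optsP n 5).all fun t5 => (optsP n 7).all fun t7 =>
    (optsP n 11).all fun t11 => (optsP n 19).all fun t19 => Bad n (val t3 t5 t7 t11 t19)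

/-- The orders to be excluded by counting. -/
def orders : List ℕ :=
  ((DIVS.filter fun m => m ∣ 9240 ∧ m ≠ 9240).map (19 * ·)).filter fun n =>
    n ≠ 19 ∧ n ≠ 760 ∧ n ≠ 2280 ∧ (n % 2 = 1 ∨ 4 ∣ n)

theorem chk_orders : ∀ n ∈ orders, chk n = true := by decide +kernel

end Cfsg.Agent.Lib.J1Ord
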