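import Mathlib
import Cfsg.Agent.Lib.J1Ord.Check
import Cfsg.Agent.Lib.Classical.Basic
import Cfsg.Agent.Lib.Cl.SmallSimple
import Cfsg.Agent.S0999

/-!
No non-abelian simple group has order `19 * m` for `m ∣ 9240`, `m ≠ 9240`.
-/

set_option autoImplicit false

namespace Cfsg.Agent.Lib.J1Ord

open Subgroup

variable {H : Type*} [Group H] [Finite H]

theorem ps5_prime {p : ℕ} (hp : p ∈ ps5) : p.Prime := by
  simp only [ps5, List.mem_cons, List.not_mem_nil, or_false] at hp
  rcases hp with rfl | rfl | rfl | rfl | rfl <;> norm_num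

theorem bad_false [IsSimpleGroup H] (D : ℕ → ℕ × ℕ)
    (hpd : ∀ p ∈ ps5, (D p).2 ≠ 0 → PD H p (D p).1 (D p).2)
    (ha : ∀ p ∈ ps5, (D p).2 ≠ 0 → (D p).1 ≠ 1)
    (habs : ∀ p ∈ ps5, (D p).2 = 0 → (D p).1 = 0)
    (h : Bad (Nat.card H) D = true) : False := by
  classical
  simp only [Bad, Bool.or_eq_true] at h
  rcases h with (h | h) | h
  · simp only [asym, List.any_eq_true, Bool.and_eq_true, decide_eq_true_eq, bne_iff_ne] at h
    obtain ⟨p, hp, q, hq, ⟨⟨hpq, h1⟩, h2⟩, h3⟩ := h
    have P1 := hpd p hp h1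
    have P2 := hpd q hq h2
    have e1 := P1.dvd_iff (ps5_prime hq) (Ne.symm hpq)
    have e2 := P2.dvd_iff (ps5_prime hp) hpq
    apply h3
    exact decide_eq_decide.mpr (e1.trans ((⟨Cm.symm, Cm.symm⟩ : Cm H p q ↔ Cm H q p).trans e2.symm))
  · simp only [centB, List.any_eq_true, Bool.and_eq_true, decide_eq_true_eq] at h
    obtain ⟨q, hq, ⟨⟨h1, h2⟩, h3⟩, h4⟩ := h
    have h19 : 19 ∈ ps5 := by simp [ps5]
    exact cent_false (hpd 19 h19 h2) (ha 19 h19 h2) (ps5_prime hq) h1 h3 h4
  · simp only [cntB, List.any_eq_true, Bool.and_eq_true, decide_eq_true_eq] at h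
    obtain ⟨Q, -, h1, h2⟩ := h
    simp only [indep, List.all_eq_true, Bool.or_eq_true, decide_eq_true_eq, Bool.not_eq_true',
      decide_eq_false_iff_not] at h1
    set ps : Finset ℕ := ps5.toFinset.filter fun p => (D p).2 ≠ 0 with hps
    set Q' : Finset ℕ := Q.toFinset.filter fun p => p ∈ ps5 ∧ (D p).2 ≠ 0 with hQ'
    have hA : ∀ p ∈ ps, PD H p (D p).1 (D p).2 := by
      intro p hp
      obtain ⟨h3, h4⟩ := Finset.mem_filter.mp hp
      exact hpd p (List.mem_toFinset.mp h3) h4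
    have hB : ∀ p ∈ Q', ∀ q ∈ Q', p ≠ q → ¬ Cm H p q := by
      intro p hp q hq hpq hCm
      obtain ⟨h3, h4, h5⟩ := Finset.mem_filter.mp hp
      obtain ⟨h6, h7, h8⟩ := Finset.mem_filter.mp hq
      rcases h1 p (List.mem_toFinset.mp h3) q (List.mem_toFinset.mp h6) with ((h9 | h9) | h9) | h9
      · exact hpq h9
      · exact h5 h9
      · exact h8 h9
      · exact h9 (((hpd p h4 h5).dvd_iff (ps5_prime h7) (Ne.symm hpq)).mpr hCm)
    haveI : Fintype H := Fintype.ofFinite H
    have hc := count_lt (H := H) ps Q' (fun p => (D p).1) (fun p => (D p).2) hA hB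
    have hnd : ps5.Nodup := by decide
    have h3 : total D Q = ∑ p ∈ ps, (if p ∈ Q' then (D p).1 * ((p - 1) * (D p).2) else (D p).1 * (p - 1)) := by
      rw [total, ← List.sum_toFinset _ hnd, hps, Finset.sum_filter_of_ne]
      · apply Finset.sum_congr rfl
        intro p hp
        have hp5 : p ∈ ps5 := List.mem_toFinset.mp hp
        by_cases h0 : (D p).2 = 0
        · rw [habs p hp5 h0]
          simp
        · have : p ∈ Q' ↔ p ∈ Q := by
            simp only [hQ', Finset.mem_filter, List.mem_toFinset]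
            tauto
          simp only [this]
      · intro p hp hne h0
        have hp5 : p ∈ ps5 := List.mem_toFinset.mp hp
        apply hne
        rw [habs p hp5 h0]
        simp
    rw [h3] at h2
    exact absurd hc (not_lt.mpr h2)

theorem exists_data [IsSimpleGroup H] (hnc : ¬ IsMulCommutative H) (hn : Nat.card H ∣ 175560)
    (h19 : 19 ∣ Nat.card H) {p : ℕ} (hp : p ∈ ps5) :
    ∃ t : ℕ × ℕ, t ∈ optsP (Nat.card H) p ∧ (t.2 ≠ 0 → PD H p t.1 t.2 ∧ t.1 ≠ 1) ∧ (t.2 = 0 → t.1 = 0) := by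
  by_cases hd : p ∣ Nat.card H
  · obtain ⟨m, hm⟩ := hd
    have hpm : ¬ p ∣ m := by
      rintro ⟨r, hr⟩
      have h1 : p * p ∣ 175560 := by
        refine Dvd.dvd.trans ⟨r, ?_⟩ hn
        rw [hm, hr, mul_assoc]
      simp only [ps5, List.mem_cons, List.not_mem_nil, or_false] at hp
      rcases hp with rfl | rfl | rfl | rfl | rfl <;> revert h1 <;> decide
    obtain ⟨a, c, k, h1, h2, h3, h4, h5, h6, h7⟩ := exists_PD hnc (ps5_prime hp) hm hpm h19
    refine ⟨(a, c), mem_optsP hn Nat.card_pos.ne' (ps5_prime hp).two_le ⟨m, hm⟩ h2 h3 h4 h5 h6 h7,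
      fun _ => ⟨h1, h3⟩, fun hc0 => ?_⟩
    exfalso
    have hc0' : c = 0 := hc0
    rw [hc0'] at h7
    simp only [mul_zero, zero_mul] at h7
    exact Nat.card_pos.ne h7
  · refine ⟨(0, 0), ?_, fun h => absurd rfl h, fun _ => rfl⟩
    rw [optsP, if_neg hd]
    simp

theorem card_of_small [IsSimpleGroup H] (hnc : ¬ IsMulCommutative H) (h19 : 19 ∣ Nat.card H)
    (hb : Nat.card H < 6859) : Nat.card H = 3420 := by
  have hcyc : ¬ IsCyclic H := by
    intro hc
    apply hnc
    obtain ⟨g, hg⟩ := hc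
    refine ⟨⟨fun a b => ?_⟩⟩
    obtain ⟨i, rfl⟩ := hg a
    obtain ⟨j, rfl⟩ := hg b
    exact zpow_mul_comm g i j
  rcases Cfsg.Agent.S0999.result hcyc 19 (by norm_num) h19 (by norm_num; exact hb) with
    ⟨F, _, _, hF, -, ⟨e⟩⟩ | ⟨m, F, _, _, hF, hm, -, ⟨e⟩⟩
  · rw [Nat.card_congr e.toEquiv]
    have h1 := Cfsg.Agent.Lib.Classical.card_PSL (F := F) hF 2 (by norm_num)
    simp only [Fin.prod_univ_two] at h1
    norm_num at h1
    omega
  · exfalso
    have h1 : 2 ^ m = 18 := by omega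
    have h2 : m < 5 := by
      by_contra hc
      have : 2 ^ 5 ≤ 2 ^ m := Nat.pow_le_pow_right (by norm_num) (by omega)
      omega
    interval_cases m <;> omega

theorem no_simple [IsSimpleGroup H] (hnc : ¬ IsMulCommutative H) {m : ℕ} (hm : m ∣ 9240) (hm1 : m ≠ 9240)
    (hH : Nat.card H = 19 * m) : False := by
  have hn : Nat.card H ∣ 175560 := by
    rw [hH, show 175560 = 19 * 9240 from rfl]
    exact Nat.mul_dvd_mul_left _ hm
  have h19 : 19 ∣ Nat.card H := ⟨m, hH⟩
  have hm0 : m ≠ 0 := by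
    rintro rfl
    simp at hm
  by_cases h1 : Nat.card H = 760 ∨ Nat.card H = 2280
  · have := card_of_small hnc h19 (by rcases h1 with h | h <;> omega)
    omega
  by_cases h2 : Nat.card H = 19
  · haveI : Fact (Nat.Prime (Nat.card H)) := ⟨by rw [h2]; norm_num⟩
    have hc : IsCyclic H := isCyclic_of_prime_card rfl
    apply hnc
    obtain ⟨g, hg⟩ := hc
    refine ⟨⟨fun a b => ?_⟩⟩
    obtain ⟨i, rfl⟩ := hg a
    obtain ⟨j, rfl⟩ := hg b
    exact zpow_mul_comm g i j
  by_cases h3 : Nat.card H % 2 = 1 ∨ 4 ∣ Nat.card H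
  · have hmem : Nat.card H ∈ orders := by
      simp only [orders, List.mem_filter, List.mem_map, decide_eq_true_eq]
      refine ⟨⟨m, ⟨mem_DIVS (hm.trans ⟨19, by norm_num⟩), ?_⟩, hH.symm⟩, ?_, ?_, ?_, h3⟩
      · exact ⟨hm, hm1⟩
      · exact h2
      · exact fun h => h1 (Or.inl h)
      · exact fun h => h1 (Or.inr h)
    have hchk := chk_orders _ hmem
    obtain ⟨t3, ht3, a3, b3⟩ := exists_data hnc hn h19 (p := 3) (by simp [ps5])
    obtain ⟨t5, ht5, a5, b5⟩ := exists_data hnc hn h19 (p := 5) (by simp [ps5])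
    obtain ⟨t7, ht7, a7, b7⟩ := exists_data hnc hn h19 (p := 7) (by simp [ps5])
    obtain ⟨t11, ht11, a11, b11⟩ := exists_data hnc hn h19 (p := 11) (by simp [ps5])
    obtain ⟨t19, ht19, a19, b19⟩ := exists_data hnc hn h19 (p := 19) (by simp [ps5])
    simp only [chk, List.all_eq_true] at hchk
    have hbad := hchk t3 ht3 t5 ht5 t7 ht7 t11 ht11 t19 ht19
    refine bad_false (val t3 t5 t7 t11 t19) ?_ ?_ ?_ hbad
    · intro p hp
      simp only [ps5, List.mem_cons, List.not_mem_nil, or_false] at hp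
      rcases hp with rfl | rfl | rfl | rfl | rfl
      · exact fun h => (a3 h).1
      · exact fun h => (a5 h).1
      · exact fun h => (a7 h).1
      · exact fun h => (a11 h).1
      · exact fun h => (a19 h).1
    · intro p hp
      simp only [ps5, List.mem_cons, List.not_mem_nil, or_false] at hp
      rcases hp with rfl | rfl | rfl | rfl | rfl
      · exact fun h => (a3 h).2
      · exact fun h => (a5 h).2
      · exact fun h => (a7 h).2
      · exact fun h => (a11 h).2
      · exact fun h => (a19 h).2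
    · intro p hp
      simp only [ps5, List.mem_cons, List.not_mem_nil, or_false] at hp
      rcases hp with rfl | rfl | rfl | rfl | rfl
      · exact b3
      · exact b5
      · exact b7
      · exact b11
      · exact b19
  · push Not at h3
    have h4 := Lib.Cl.four_dvd_card_of_simple hnc (Nat.even_iff.mpr (by omega))
    exact h3.2 h4

end Cfsg.Agent.Lib.J1Ord
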