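import Mathlib
import Cfsg.Agent.Lib.J1Ord.Main

/-!
Reduction of "normal Sylow 19-subgroup" along normal subgroups, for orders dividing `175560`.
-/

set_option autoImplicit false

universe u

namespace Cfsg.Agent.Lib.J1Ord

open Subgroup
open scoped Pointwise

theorem pp_lt {r v : ℕ} (hr : r.Prime) (h : r ^ v ∣ 9240) : r ^ v < 19 := by
  rcases Nat.eq_zero_or_pos v with rfl | hv
  · simp
  have hr1 : r ∣ 9240 := (dvd_pow_self r hv.ne').trans h
  have hr2 : r = 2 ∨ r = 3 ∨ r = 5 ∨ r = 7 ∨ r = 11 := by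
    have e : 9240 = 2 * (3 * (5 * (7 * (11 * 4)))) := by norm_num
    rw [e] at hr1
    rcases (Nat.Prime.dvd_mul hr).mp hr1 with h1 | h1
    · exact Or.inl ((Nat.prime_dvd_prime_iff_eq hr (by norm_num)).mp h1)
    rcases (Nat.Prime.dvd_mul hr).mp h1 with h1 | h1
    · exact Or.inr (Or.inl ((Nat.prime_dvd_prime_iff_eq hr (by norm_num)).mp h1))
    rcases (Nat.Prime.dvd_mul hr).mp h1 with h1 | h1
    · exact Or.inr (Or.inr (Or.inl ((Nat.prime_dvd_prime_iff_eq hr (by norm_num)).mp h1)))
    rcases (Nat.Prime.dvd_mul hr).mp h1 with h1 | h1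
    · exact Or.inr (Or.inr (Or.inr (Or.inl ((Nat.prime_dvd_prime_iff_eq hr (by norm_num)).mp h1))))
    rcases (Nat.Prime.dvd_mul hr).mp h1 with h1 | h1
    · exact Or.inr (Or.inr (Or.inr (Or.inr ((Nat.prime_dvd_prime_iff_eq hr (by norm_num)).mp h1))))
    · have h2 : r ∣ 2 ^ 2 := by simpa using h1
      exact Or.inl ((Nat.prime_dvd_prime_iff_eq hr (by norm_num)).mp (hr.dvd_of_dvd_pow h2))
  rcases hr2 with rfl | rfl | rfl | rfl | rfl
  · have hv4 : v < 4 := by
      by_contra hc
      have h3 := (pow_dvd_pow 2 (show 4 ≤ v by omega)).trans h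
      revert h3
      decide
    interval_cases v <;> norm_num
  · have hv4 : v < 2 := by
      by_contra hc
      have h3 := (pow_dvd_pow 3 (show 2 ≤ v by omega)).trans h
      revert h3
      decide
    interval_cases v <;> norm_num
  · have hv4 : v < 2 := by
      by_contra hc
      have h3 := (pow_dvd_pow 5 (show 2 ≤ v by omega)).trans h
      revert h3
      decide
    interval_cases v <;> norm_num
  · have hv4 : v < 2 := by
      by_contra hc
      have h3 := (pow_dvd_pow 7 (show 2 ≤ v by omega)).trans h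
      revert h3
      decide
    interval_cases v <;> norm_num
  · have hv4 : v < 2 := by
      by_contra hc
      have h3 := (pow_dvd_pow 11 (show 2 ≤ v by omega)).trans h
      revert h3
      decide
    interval_cases v <;> norm_num

theorem centralizes_of_card {X : Type*} [Group X] [Finite X] (N : Subgroup X) [hN : N.Normal]
    (hNc : Nat.card N ∣ 9240) (hN19 : ¬ 19 ∣ Nat.card N) {s : X} (hs : s ^ 19 = 1) (n : X) (hn : n ∈ N) :
    Commute s n := by
  classical
  haveI f19 : Fact (Nat.Prime 19) := ⟨by norm_num⟩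
  let α : MulAut N := MulAut.conjNormal s
  have hα : ∀ u : N, ((α u : N) : X) = s * u * s⁻¹ := fun u => MulAut.conjNormal_apply s u
  have hα19 : α ^ 19 = 1 := by
    show (MulAut.conjNormal s) ^ 19 = 1
    rw [← map_pow, hs, map_one]
  let Q : Subgroup (MulAut N) := zpowers α
  have hQc : Nat.card Q ∣ 19 := by
    rw [Nat.card_zpowers]
    exact orderOf_dvd_of_pow_eq_one hα19
  have hQp : IsPGroup 19 Q := by
    rcases (Nat.dvd_prime (by norm_num)).mp hQc with h | h
    · exact IsPGroup.of_card (n := 0) (by rw [h, pow_zero])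
    · exact IsPGroup.of_card (n := 1) (by rw [h, pow_one])
  let C : Subgroup N := (centralizer ({s} : Set X)).subgroupOf N
  have hCmem : ∀ u : N, α u = u → u ∈ C := by
    intro u hu
    rw [Subgroup.mem_subgroupOf, mem_centralizer_singleton_iff]
    have h1 := hα u
    rw [hu] at h1
    exact eq_mul_inv_iff_mul_eq.mp h1
  have hSyl : ∀ (r : ℕ) [Fact r.Prime], ∃ R : Sylow r N, (R : Subgroup N) ≤ C := by
    intro r _
    have hmod := hQp.card_modEq_card_fixedPoints (Sylow r N)
    have hne : (MulAction.fixedPoints Q (Sylow r N)).Nonempty := by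
      by_contra he
      rw [Set.not_nonempty_iff_eq_empty] at he
      obtain ⟨R⟩ : Nonempty (Sylow r N) := inferInstance
      have h3 : 19 ∣ Nat.card (Sylow r N) := by
        have h4 : Nat.card (MulAction.fixedPoints Q (Sylow r N)) = 0 := by
          rw [he]
          simp
        rw [h4] at hmod
        exact (Nat.modEq_zero_iff_dvd).mp hmod
      apply hN19
      refine h3.trans ?_
      rw [R.card_eq_index_normalizer]
      exact Subgroup.index_dvd_card _
    obtain ⟨R, hR⟩ := hne
    refine ⟨R, fun u hu => ?_⟩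
    have hRfix : ∀ g : Q, ∀ w ∈ (R : Subgroup N), ((g : MulAut N) w) ∈ (R : Subgroup N) := by
      intro g w hw
      have h1 : (g • R : Sylow r N) = R := hR g
      have h2 : ((g • R : Sylow r N) : Subgroup N) = (g : MulAut N) • (R : Subgroup N) := Sylow.pointwise_smul_def
      rw [h1] at h2
      rw [h2]
      exact Subgroup.smul_mem_pointwise_smul _ _ _ hw
    have h1 : (MulAction.orbit Q u).ncard ∣ 19 := by
      rw [← MulAction.index_stabilizer]
      exact (Subgroup.index_dvd_card _).trans hQc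
    have hsub : MulAction.orbit Q u ⊆ ((R : Subgroup N) : Set N) := by
      rintro _ ⟨g, rfl⟩
      exact hRfix g u hu
    have h2 : (MulAction.orbit Q u).ncard ≤ Nat.card (R : Subgroup N) := by
      have e : Nat.card (R : Subgroup N) = ((R : Subgroup N) : Set N).ncard := Nat.card_coe_set_eq _
      rw [e]
      exact Set.ncard_le_ncard hsub (Set.toFinite _)
    have h3 : Nat.card (R : Subgroup N) < 19 := by
      have h4 : Nat.card (R : Subgroup N) ∣ 9240 := (Subgroup.card_subgroup_dvd_card _).trans hNc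
      rw [R.card_eq_multiplicity] at h4 ⊢
      exact pp_lt (Fact.out) h4
    have h4 : (MulAction.orbit Q u).ncard = 1 := by
      rcases (Nat.dvd_prime (by norm_num)).mp h1 with h5 | h5
      · exact h5
      · omega
    obtain ⟨z, hz⟩ := Set.ncard_eq_one.mp h4
    have h5 : u ∈ MulAction.orbit Q u := MulAction.mem_orbit_self u
    have h6 : (⟨α, mem_zpowers α⟩ : Q) • u ∈ MulAction.orbit Q u := MulAction.mem_orbit u _
    rw [hz] at h5 h6
    have h7 : (⟨α, mem_zpowers α⟩ : Q) • u = u := (Set.mem_singleton_iff.mp h6).trans (Set.mem_singleton_iff.mp h5).symm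
    exact hCmem u h7
  have hdvd : Nat.card N ∣ Nat.card C := by
    apply (Nat.factorization_prime_le_iff_dvd Nat.card_pos.ne' Nat.card_pos.ne').mp
    intro r hr
    haveI := Fact.mk hr
    obtain ⟨R, hR⟩ := hSyl r
    have h1 : Nat.card (R : Subgroup N) ∣ Nat.card C := Subgroup.card_dvd_of_le hR
    rw [R.card_eq_multiplicity] at h1
    exact (hr.pow_dvd_iff_le_factorization Nat.card_pos.ne').mp h1
  have hC : C = ⊤ := Subgroup.eq_top_of_card_eq _ (Nat.dvd_antisymm (Subgroup.card_subgroup_dvd_card C) hdvd)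
  have h8 : (⟨n, hn⟩ : N) ∈ C := by
    rw [hC]
    exact Subgroup.mem_top _
  rw [Subgroup.mem_subgroupOf, mem_centralizer_singleton_iff] at h8
  exact h8.symm

theorem subsingleton_sylow {Y : Type*} [Group Y] [Finite Y] {p : ℕ} [Fact p.Prime] (T : Sylow p Y)
    (hT : (T : Subgroup Y).Normal) : Subsingleton (Sylow p Y) := ⟨fun A B => by
  haveI := hT
  have hA : ∀ C : Sylow p Y, C = T := fun C => by
    obtain ⟨g, rfl⟩ := MulAction.exists_smul_eq Y T C
    exact Sylow.smul_eq_of_normal
  rw [hA A, hA B]⟩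

theorem step {X : Type u} [Group X] [Finite X] {m : ℕ} (hX : Nat.card X = 19 * m) (hm : m ∣ 9240)
    (N : Subgroup X) [hN : N.Normal] (h1 : N ≠ ⊥) (h2 : N ≠ ⊤)
    (IH : ∀ (Y : Type u) [Group Y] [Finite Y] (m' : ℕ), Nat.card Y = 19 * m' → m' ∣ 9240 → m' < m →
      ∀ P : Sylow 19 Y, (P : Subgroup Y).Normal) (P : Sylow 19 X) : (P : Subgroup X).Normal := by
  classical
  haveI f19 : Fact (Nat.Prime 19) := ⟨by norm_num⟩
  have h19m : ¬ 19 ∣ m := fun h => by
    have h3 := h.trans hm
    revert h3
    decide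
  have hPc : ∀ P : Sylow 19 X, Nat.card (P : Subgroup X) = 19 :=
    fun P => Lib.SmallSimple.card_sylow_of_exact m h19m hX P
  have hm0 : m ≠ 0 := by
    rintro rfl
    simp at hm
  by_cases hd : 19 ∣ Nat.card N
  · have hidx := N.card_mul_index
    obtain ⟨m₁, hm₁⟩ := hd
    have h3 : m = m₁ * N.index := by
      rw [hm₁, hX, mul_assoc] at hidx
      exact (Nat.eq_of_mul_eq_mul_left (by norm_num) hidx).symm
    have hidx1 : N.index ≠ 1 := fun h => h2 (Subgroup.index_eq_one.mp h)
    have hidx0 : N.index ≠ 0 := Subgroup.index_ne_zero_of_finite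
    have hm₁0 : m₁ ≠ 0 := by
      rintro rfl
      simp at h3
      exact hm0 h3
    have hlt : m₁ < m := by
      rw [h3]
      have : 2 ≤ N.index := by omega
      nlinarith [Nat.pos_of_ne_zero hm₁0]
    have hm₁d : m₁ ∣ 9240 := (Dvd.intro _ h3.symm).trans hm
    have hNormal := IH N m₁ hm₁ hm₁d hlt
    obtain ⟨T⟩ : Nonempty (Sylow 19 N) := inferInstance
    have hT := hNormal T
    have hm₁19 : ¬ 19 ∣ m₁ := fun h => h19m (h3 ▸ h.mul_right _)
    have hTc : Nat.card (T : Subgroup N) = 19 := Lib.SmallSimple.card_sylow_of_exact m₁ hm₁19 hm₁ T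
    have hsub := subsingleton_sylow T hT
    have hall : ∀ y : X, ∀ hy : y ∈ N, y ^ 19 = 1 → (⟨y, hy⟩ : N) ∈ (T : Subgroup N) := by
      intro y hy hy19
      have hord : orderOf (⟨y, hy⟩ : N) ∣ 19 := by
        apply orderOf_dvd_of_pow_eq_one
        exact Subtype.ext hy19
      have hp : IsPGroup 19 (zpowers (⟨y, hy⟩ : N)) := by
        rcases (Nat.dvd_prime (by norm_num)).mp hord with h | h
        · exact IsPGroup.of_card (n := 0) (by rw [Nat.card_zpowers, h, pow_zero])
        · exact IsPGroup.of_card (n := 1) (by rw [Nat.card_zpowers, h, pow_one])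
      obtain ⟨T', hT'⟩ := hp.exists_le_sylow
      have h4 : T' = T := Subsingleton.elim _ _
      rw [h4] at hT'
      exact hT' (mem_zpowers _)
    obtain ⟨t, -, hto, hTz⟩ := exists_generator T hTc
    have hto' : orderOf (t : X) = 19 := by rwa [Subgroup.orderOf_coe]
    obtain ⟨Q, hQ⟩ := exists_sylow_zpowers hPc hto'
    have hQn : (Q : Subgroup X).Normal := by
      refine ⟨fun u hu g => ?_⟩
      rw [hQ] at hu ⊢
      obtain ⟨i, rfl⟩ := mem_zpowers_iff.mp hu
      have h5 : ((t : X) ^ i) ∈ N := N.zpow_mem t.2 i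
      have h6 : g * ((t : X) ^ i) * g⁻¹ ∈ N := hN.conj_mem _ h5 g
      have h7 : (g * ((t : X) ^ i) * g⁻¹) ^ 19 = 1 := by
        rw [conj_pow, ← zpow_natCast, ← zpow_mul, mul_comm, zpow_mul, zpow_natCast]
        have : (t : X) ^ 19 = 1 := by rw [← hto']; exact pow_orderOf_eq_one _
        rw [this]
        simp
      have h8 := hall _ h6 h7
      rw [hTz] at h8
      obtain ⟨j, hj⟩ := mem_zpowers_iff.mp h8
      have h9 := congrArg Subtype.val hj
      rw [Subgroup.coe_zpow] at h9
      exact mem_zpowers_iff.mpr ⟨j, h9⟩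
    have hsubX := subsingleton_sylow Q hQn
    rw [Subsingleton.elim P Q]
    exact hQn
  · have hcard := Subgroup.card_eq_card_quotient_mul_card_subgroup N
    have h19Q : 19 ∣ Nat.card (X ⧸ N) := by
      have h3 : 19 ∣ Nat.card (X ⧸ N) * Nat.card N := by
        rw [← hcard, hX]
        exact dvd_mul_right _ _
      rcases (Nat.Prime.dvd_mul (by norm_num)).mp h3 with h4 | h4
      · exact h4
      · exact absurd h4 hd
    obtain ⟨m₂, hm₂⟩ := h19Q
    have h3 : m = m₂ * Nat.card N := by
      rw [hm₂, hX, mul_assoc] at hcard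
      exact Nat.eq_of_mul_eq_mul_left (by norm_num) hcard
    have hN1 : Nat.card N ≠ 1 := fun h => h1 (Subgroup.card_eq_one.mp h)
    have hN0 : Nat.card N ≠ 0 := Nat.card_pos.ne'
    have hm₂0 : m₂ ≠ 0 := by
      rintro rfl
      simp at h3
      exact hm0 h3
    have hlt : m₂ < m := by
      rw [h3]
      have : 2 ≤ Nat.card N := by omega
      nlinarith [Nat.pos_of_ne_zero hm₂0]
    have hNd : Nat.card N ∣ 9240 := (Dvd.intro_left _ h3.symm).trans hm
    let π := QuotientGroup.mk' N
    have hs : Function.Surjective π := QuotientGroup.mk'_surjective N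
    have hbar := IH (X ⧸ N) m₂ hm₂ ((Dvd.intro _ h3.symm).trans hm) hlt (P.mapSurjective hs)
    have hcoe : ((P.mapSurjective hs : Sylow 19 (X ⧸ N)) : Subgroup (X ⧸ N)) = (P : Subgroup X).map π := rfl
    rw [hcoe] at hbar
    have hp19 : ∀ v ∈ (P : Subgroup X), v ^ 19 = 1 := by
      intro v hv
      have h4 := pow_card_eq_one' (x := (⟨v, hv⟩ : (P : Subgroup X)))
      rw [hPc P] at h4
      exact congrArg Subtype.val h4
    refine ⟨fun u hu g => ?_⟩
    have h4 : π (g * u * g⁻¹) ∈ (P : Subgroup X).map π := by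
      rw [map_mul, map_mul, map_inv]
      exact hbar.conj_mem _ (Subgroup.mem_map_of_mem _ hu) _
    obtain ⟨v, hv, hve⟩ := h4
    have h5 : v⁻¹ * (g * u * g⁻¹) ∈ N := QuotientGroup.eq.mp hve
    obtain ⟨n, hn⟩ : ∃ n, n = v⁻¹ * (g * u * g⁻¹) := ⟨_, rfl⟩
    have h6 : g * u * g⁻¹ = v * n := by rw [hn]; group
    have hnN : n ∈ N := by rw [hn]; exact h5
    have hcomm := centralizes_of_card N hNd hd (hp19 v hv) n hnN
    have h7 : (g * u * g⁻¹) ^ 19 = 1 := by
      rw [conj_pow, hp19 u hu]
      simp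
    rw [h6, hcomm.mul_pow, hp19 v hv, one_mul] at h7
    have h8 : orderOf n ∣ 19 := orderOf_dvd_of_pow_eq_one h7
    have h9 : orderOf n ∣ Nat.card N := by
      rw [← Subgroup.orderOf_mk n hnN]
      exact orderOf_dvd_natCard _
    have h10 : orderOf n = 1 := by
      rcases (Nat.dvd_prime (by norm_num)).mp h8 with h | h
      · exact h
      · rw [h] at h9
        exact absurd h9 hd
    have h11 : n = 1 := orderOf_eq_one_iff.mp h10
    rw [h6, h11, mul_one]
    exact hv

/-- The normal Sylow theorem below `175560`. -/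
theorem lemA : ∀ (m : ℕ) (X : Type u) [Group X] [Finite X], Nat.card X = 19 * m → m ∣ 9240 → m ≠ 9240 →
    ∀ P : Sylow 19 X, (P : Subgroup X).Normal := by
  intro m
  induction m using Nat.strong_induction_on with
  | _ m ih =>
    intro X _ _ hX hm hm1 P
    have hm0 : m ≠ 0 := by
      rintro rfl
      simp at hm
    have hle : m ≤ 9240 := Nat.le_of_dvd (by norm_num) hm
    by_cases hs : IsSimpleGroup X
    · by_cases hc : IsMulCommutative X
      · refine ⟨fun u hu g => ?_⟩
        have h1 : g * u = u * g := hc.is_comm.comm g u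
        rw [h1, mul_inv_cancel_right]
        exact hu
      · exact (no_simple hc hm hm1 hX).elim
    · have hnt : Nontrivial X := by
        rw [← Finite.one_lt_card_iff_nontrivial, hX]
        have : 0 < m := Nat.pos_of_ne_zero hm0
        omega
      have hex : ∃ N : Subgroup X, N.Normal ∧ N ≠ ⊥ ∧ N ≠ ⊤ := by
        by_contra hcon
        push Not at hcon
        exact hs ⟨fun N hN => by
          by_cases h : N = ⊥
          · exact Or.inl h
          · exact Or.inr (hcon N hN h)⟩
      obtain ⟨N, hN, h1, h2⟩ := hex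
      exact step hX hm N h1 h2 (fun Y _ _ m' hY hm' hlt => ih m' hlt Y hY hm' (by omega)) P

end Cfsg.Agent.Lib.J1Ord
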